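import Cfsg.Agent.Lib.H01.Fitting
import Cfsg.Agent.Lib.H13.CharP2

/-!
# Four-groups normal in a Sylow 2-subgroup, in groups of characteristic 2 type
-/

set_option autoImplicit false
set_option linter.unusedSectionVars false
set_option linter.unusedVariables false

namespace Cfsg.Agent.H08.NG

open Subgroup Cfsg

universe u

variable {G : Type u} [Group G] [Finite G]

/-- An element of an odd-order subgroup has odd order. -/
theorem odd_orderOf {K : Subgroup G} (hK : Odd (Nat.card K)) {c : G} (hc : c ∈ K) : Odd (orderOf c) := by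
  have h1 : orderOf c ∣ Nat.card K := by
    have := orderOf_dvd_natCard (⟨c, hc⟩ : K)
    rwa [Subgroup.orderOf_mk] at this
  exact Odd.of_dvd_nat hK h1

/-- An involution in an odd-order subgroup is trivial. -/
theorem eq_one_of_sq {K : Subgroup G} (hK : Odd (Nat.card K)) {c : G} (hc : c ∈ K) (h : c * c = 1) : c = 1 := by
  have h1 := odd_orderOf hK hc
  have h2 : orderOf c ∣ 2 := orderOf_dvd_of_pow_eq_one (by rw [pow_two]; exact h)
  have h3 : orderOf c = 1 := by
    have := (Nat.dvd_prime Nat.prime_two).1 h2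
    rcases this with h | h
    · exact h
    · rw [h] at h1; exact absurd h1 (by decide)
  exact orderOf_eq_one_iff.1 h3

/-- A 2-element in an odd-order subgroup is trivial. -/
theorem eq_one_of_two {K Q : Subgroup G} (hK : Odd (Nat.card K)) (hQ : IsPGroup 2 Q) {c : G} (hc : c ∈ K)
    (hc' : c ∈ Q) : c = 1 := by
  have h1 := odd_orderOf hK hc
  obtain ⟨n, hn⟩ := hQ ⟨c, hc'⟩
  have h2 : c ^ 2 ^ n = 1 := by
    have := congrArg Subtype.val hn
    simpa using this
  have h3 : orderOf c ∣ 2 ^ n := orderOf_dvd_of_pow_eq_one h2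
  obtain ⟨k, -, hk⟩ := (Nat.dvd_prime_pow Nat.prime_two).1 h3
  rcases k with _ | k
  · simpa using hk
  · rw [hk, pow_succ] at h1
    exact absurd h1 (by simp [Nat.odd_iff])

/-- The centralizer of an involution is the normalizer of the subgroup it generates. -/
theorem mem_normalizer_zpowers {z : G} (hz : z ≠ 1) (hz2 : z * z = 1) (n : G) :
    n ∈ normalizer (zpowers z : Set G) ↔ n * z = z * n := by
  have hpow : ∀ k : ℤ, z ^ k = 1 ∨ z ^ k = z := by
    intro k
    have hk : z ^ k = z ^ (k % 2) := by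
      conv_lhs => rw [← Int.mul_ediv_add_emod k 2, zpow_add, zpow_mul]
      have : z ^ (2 : ℤ) = 1 := by
        rw [show (2 : ℤ) = ((2 : ℕ) : ℤ) by rfl, zpow_natCast, pow_two, hz2]
      rw [this, one_zpow, one_mul]
    rcases Int.emod_two_eq_zero_or_one k with h | h
    · left; rw [hk, h, zpow_zero]
    · right; rw [hk, h, zpow_one]
  rw [mem_normalizer_iff]
  constructor
  · intro h
    have h1 : n * z * n⁻¹ ∈ zpowers z := (h z).1 (mem_zpowers z)
    obtain ⟨k, hk⟩ := mem_zpowers_iff.1 h1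
    rcases hpow k with h2 | h2
    · rw [h2] at hk
      exfalso
      apply hz
      have h3 : n * z * n⁻¹ = 1 := hk.symm
      have h4 : n * z = n := by
        have := congrArg (· * n) h3
        simpa [mul_assoc] using this
      simpa using h4
    · rw [h2] at hk
      have : n * z * n⁻¹ = z := hk.symm
      calc n * z = (n * z * n⁻¹) * n := by group
        _ = z * n := by rw [this]
  · intro h h'
    have hc : ∀ k : ℤ, n * z ^ k * n⁻¹ = z ^ k := by
      intro k
      have : Commute n (z ^ k) := (show Commute n z from h).zpow_right k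
      rw [this.eq]; group
    constructor
    · intro hm
      obtain ⟨k, rfl⟩ := mem_zpowers_iff.1 hm
      rw [hc]; exact zpow_mem (mem_zpowers z) k
    · intro hm
      obtain ⟨k, hk⟩ := mem_zpowers_iff.1 hm
      have : z ^ k = h' := by
        have h2 : n * z ^ k * n⁻¹ = n * h' * n⁻¹ := (hc k).trans hk
        exact mul_left_cancel (mul_right_cancel h2)
      rw [← this]; exact zpow_mem (mem_zpowers z) k

/-- The 2-core of the centralizer of an involution, seen in `G`. -/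
theorem core_data (hchar : ∀ T : Subgroup G, IsPGroup 2 T → T ≠ ⊥ → IsOfCharacteristicTwo ↥(normalizer (T : Set G)))
    {z : G} (hz : z ≠ 1) (hz2 : z * z = 1) :
    ∃ Q : Subgroup G, IsPGroup 2 Q ∧ (∀ q ∈ Q, q * z = z * q) ∧
      (∀ n : G, n * z = z * n → ∀ q ∈ Q, n * q * n⁻¹ ∈ Q) ∧ z ∈ Q ∧
      (∀ c : G, c * z = z * c → (∀ q ∈ Q, c * q = q * c) → c ∈ Q) := by
  have : Fact (Nat.Prime 2) := ⟨Nat.prime_two⟩
  have hord : orderOf z = 2 := orderOf_eq_prime (by rw [pow_two]; exact hz2) hz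
  have hT2 : IsPGroup 2 (zpowers z) := by
    apply IsPGroup.of_card (n := 1)
    rw [Nat.card_zpowers, hord, pow_one]
  have hT1 : zpowers z ≠ ⊥ := by
    intro h
    exact hz (zpowers_eq_bot.1 h)
  have hN := hchar _ hT2 hT1
  have hmem := mem_normalizer_zpowers hz hz2
  set N := normalizer ((zpowers z : Subgroup G) : Set G) with hNdef
  refine ⟨(pCore 2 ↥N).map N.subtype, ?_, ?_, ?_, ?_, ?_⟩
  · exact (H01.pCore_isPGroup (G := ↥N) 2).map N.subtype
  · rintro _ ⟨q, -, rfl⟩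
    exact (hmem q.1).1 q.2
  · rintro n hn _ ⟨q, hq, rfl⟩
    have hnN : n ∈ N := (hmem n).2 hn
    refine ⟨⟨n, hnN⟩ * q * (⟨n, hnN⟩ : ↥N)⁻¹, (H01.pCore_normal (G := ↥N) 2).conj_mem q hq _, ?_⟩
    simp
  · have hzN : z ∈ N := (hmem z).2 rfl
    refine ⟨⟨z, hzN⟩, ?_, rfl⟩
    apply H01.le_pCore (G := ↥N) (N := zpowers (⟨z, hzN⟩ : ↥N))
    · constructor
      intro x hx g
      obtain ⟨k, rfl⟩ := mem_zpowers_iff.1 hx
      have hg : (g : G) * z = z * g := (hmem g.1).1 g.2
      have hc : Commute g (⟨z, hzN⟩ : ↥N) := Subtype.ext hg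
      rw [(hc.zpow_right k).eq]
      simpa using zpow_mem (mem_zpowers _) k
    · apply IsPGroup.of_card (n := 1)
      rw [Nat.card_zpowers, pow_one, Subgroup.orderOf_mk, hord]
    · exact mem_zpowers _
  · intro c hc hcq
    have hcN : c ∈ N := (hmem c).2 hc
    refine ⟨⟨c, hcN⟩, ?_, rfl⟩
    apply hN
    rw [Subgroup.mem_centralizer_iff]
    intro h hh
    apply Subtype.ext
    exact (hcq h.1 ⟨h, hh, rfl⟩).symm

/-- **Main lemma.** If `z ∈ U` is central in `P`, then odd-order `U`-invariant subgroups of `C(z)` are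
centralized by `U`. -/
theorem main_lemma (hchar : ∀ T : Subgroup G, IsPGroup 2 T → T ≠ ⊥ → IsOfCharacteristicTwo ↥(normalizer (T : Set G)))
    (P : Sylow 2 G) (U : Subgroup G) (hUP : U ≤ (P : Subgroup G))
    (hUn : (P : Subgroup G) ≤ normalizer (U : Set G)) (hU4 : IsKleinFour ↥U)
    {z : G} (hzU : z ∈ U) (hz1 : z ≠ 1) (hzc : ∀ p ∈ (P : Subgroup G), p * z = z * p)
    (K₁ : Subgroup G) (hK₁ : Odd (Nat.card K₁)) (hK₁z : ∀ k ∈ K₁, k * z = z * k)
    (hK₁U : ∀ v ∈ U, ∀ k ∈ K₁, v * k * v⁻¹ ∈ K₁) : ∀ v ∈ U, ∀ k ∈ K₁, k * v = v * k := by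
  have : Fact (Nat.Prime 2) := ⟨Nat.prime_two⟩
  have hsq : ∀ a ∈ U, a * a = 1 := by
    intro a ha
    have := IsKleinFour.mul_self (⟨a, ha⟩ : ↥U)
    simpa using congrArg Subtype.val this
  have hz2 := hsq z hzU
  obtain ⟨Q, hQ2, hQz, hQn, hzQ, hQc⟩ := core_data hchar hz1 hz2
  -- `Q ≤ P`
  have hQP : Q ≤ (P : Subgroup G) := by
    have hn : (P : Subgroup G) ≤ normalizer (Q : Set G) := by
      intro p hp
      rw [mem_normalizer_iff]
      intro q
      constructor
      · exact fun hq => hQn p (hzc p hp) q hq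
      · intro hq
        have := hQn p⁻¹ (by
          have h1 := hzc p hp
          calc p⁻¹ * z = p⁻¹ * (z * p) * p⁻¹ := by group
            _ = p⁻¹ * (p * z) * p⁻¹ := by rw [h1]
            _ = z * p⁻¹ := by group) _ hq
        simpa [mul_assoc] using this
    have h2 : IsPGroup 2 ↥(Q ⊔ (P : Subgroup G)) := by
      have := hQ2.to_sup_of_normal_left' P.isPGroup' hn
      exact this
    have h3 := P.is_maximal' h2 le_sup_right
    exact h3 ▸ le_sup_left
  intro v hvU k hk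
  have hkc := hK₁z k hk
  have hvP := hUP hvU
  have hvc := hzc v hvP
  set y := k * v * k⁻¹ * v⁻¹ with hy
  have hyK : y ∈ K₁ := by
    have h1 := hK₁U v hvU k⁻¹ (K₁.inv_mem hk)
    have : y = k * (v * k⁻¹ * v⁻¹) := by rw [hy]; group
    rw [this]
    exact K₁.mul_mem hk h1
  suffices hy1 : y = 1 by
    have h1 : k * v * k⁻¹ = v := by
      have := congrArg (· * v) hy1
      simpa [hy, mul_assoc] using this
    calc k * v = k * v * k⁻¹ * k := by group
      _ = v * k := by rw [h1]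
  have hyz : y * z = z * y := hK₁z y hyK
  by_cases hvQ : v ∈ Q
  · -- `v ∈ Q`
    have hyQ : y ∈ Q := by
      have : k * v * k⁻¹ ∈ Q := hQn k hkc v hvQ
      exact Q.mul_mem this (Q.inv_mem hvQ)
    exact eq_one_of_two hK₁ hQ2 hyK hyQ
  · -- `v ∉ Q`: commutators of `Q` and `v` lie in `⟨z⟩`
    have hUQ : ∀ a ∈ U, a ∈ Q → a = 1 ∨ a = z := by
      intro a haU haQ
      by_contra hcon
      rw [not_or] at hcon
      have h1 : (⟨a, haU⟩ : ↥U) ≠ 1 := fun h => hcon.1 (congrArg Subtype.val h)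
      have h2 : (⟨z, hzU⟩ : ↥U) ≠ 1 := fun h => hz1 (congrArg Subtype.val h)
      have h3 : (⟨a, haU⟩ : ↥U) ≠ ⟨z, hzU⟩ := fun h => hcon.2 (congrArg Subtype.val h)
      have h4 : (⟨v, hvU⟩ : ↥U) ≠ 1 := fun h => hvQ (by
        have := congrArg Subtype.val h
        simp only [OneMemClass.coe_one] at this
        rw [this]; exact Q.one_mem)
      have h5 : (⟨v, hvU⟩ : ↥U) ≠ ⟨a, haU⟩ := fun h => hvQ (by
        have := congrArg Subtype.val h
        simp only at this
        rw [this]; exact haQ)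
      have h6 : (⟨v, hvU⟩ : ↥U) ≠ ⟨z, hzU⟩ := fun h => hvQ (by
        have := congrArg Subtype.val h
        simp only at this
        rw [this]; exact hzQ)
      have h7 := IsKleinFour.eq_mul_of_ne_all h1 h2 h3 h4 h5 h6
      have h8 : v = a * z := by simpa using congrArg Subtype.val h7
      exact hvQ (h8 ▸ Q.mul_mem haQ hzQ)
    -- conjugation by `v`
    have hv1 : ∀ q ∈ Q, v * q * v⁻¹ = q ∨ v * q * v⁻¹ = q * z := by
      intro q hq
      have hqP := hQP hq
      have h1 : q⁻¹ * (v * q * v⁻¹) ∈ U := by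
        have h2 : q⁻¹ * v * q ∈ U := by
          have := (mem_normalizer_iff.1 (hUn (P.inv_mem hqP)) v).1 hvU
          simpa using this
        have h3 : q⁻¹ * (v * q * v⁻¹) = (q⁻¹ * v * q) * v⁻¹ := by group
        rw [h3]
        exact U.mul_mem h2 (U.inv_mem hvU)
      have h4 : q⁻¹ * (v * q * v⁻¹) ∈ Q :=
        Q.mul_mem (Q.inv_mem hq) (hQn v hvc q hq)
      rcases hUQ _ h1 h4 with h5 | h5
      · left
        have := congrArg (q * ·) h5
        simpa using this
      · right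
        have := congrArg (q * ·) h5
        simpa using this
    -- conjugation by `w = k v k⁻¹`
    have hw1 : ∀ q ∈ Q, (k * v * k⁻¹) * q * (k * v * k⁻¹)⁻¹ = q ∨
        (k * v * k⁻¹) * q * (k * v * k⁻¹)⁻¹ = q * z := by
      intro q hq
      have hk' : k⁻¹ * z = z * k⁻¹ := by
        calc k⁻¹ * z = k⁻¹ * (z * k) * k⁻¹ := by group
          _ = k⁻¹ * (k * z) * k⁻¹ := by rw [hkc]
          _ = z * k⁻¹ := by group
      have hq' : k⁻¹ * q * k⁻¹⁻¹ ∈ Q := hQn k⁻¹ hk' q hq
      have e : (k * v * k⁻¹) * q * (k * v * k⁻¹)⁻¹ = k * (v * (k⁻¹ * q * k⁻¹⁻¹) * v⁻¹) * k⁻¹ := by group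
      rcases hv1 _ hq' with h | h
      · left; rw [e, h]; group
      · right
        rw [e, h]
        have : k * (k⁻¹ * q * k⁻¹⁻¹ * z) * k⁻¹ = q * (k * z * k⁻¹) := by group
        rw [this, hkc]
        group
    -- `y` acts trivially modulo `z`
    have hz' : z⁻¹ = z := by
      calc z⁻¹ = z⁻¹ * (z * z) := by rw [hz2, mul_one]
        _ = z := by group
    have hwz : (k * v * k⁻¹) * z = z * (k * v * k⁻¹) := by
      have hk' : k⁻¹ * z = z * k⁻¹ := by
        calc k⁻¹ * z = k⁻¹ * (z * k) * k⁻¹ := by group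
          _ = k⁻¹ * (k * z) * k⁻¹ := by rw [hkc]
          _ = z * k⁻¹ := by group
      calc (k * v * k⁻¹) * z = k * v * (k⁻¹ * z) := by group
        _ = k * v * (z * k⁻¹) := by rw [hk']
        _ = k * (v * z) * k⁻¹ := by group
        _ = k * (z * v) * k⁻¹ := by rw [hvc]
        _ = (k * z) * v * k⁻¹ := by group
        _ = (z * k) * v * k⁻¹ := by rw [hkc]
        _ = z * (k * v * k⁻¹) := by group
    have hy1 : ∀ q ∈ Q, y * q * y⁻¹ = q ∨ y * q * y⁻¹ = q * z := by
      intro q hq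
      have hvi : v⁻¹ = v := by
        calc v⁻¹ = v⁻¹ * (v * v) := by rw [hsq v hvU, mul_one]
          _ = v := by group
      have hyv : y = (k * v * k⁻¹) * v := by rw [hy, hvi]
      have e : y * q * y⁻¹ = (k * v * k⁻¹) * (v * q * v⁻¹) * (k * v * k⁻¹)⁻¹ := by
        rw [hyv]; group
      rcases hv1 q hq with h | h
      · rw [e, h]; exact hw1 q hq
      · rw [e, h]
        have e2 : (k * v * k⁻¹) * (q * z) * (k * v * k⁻¹)⁻¹ =
            ((k * v * k⁻¹) * q * (k * v * k⁻¹)⁻¹) * ((k * v * k⁻¹) * z * (k * v * k⁻¹)⁻¹) := by group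
        have e3 : (k * v * k⁻¹) * z * (k * v * k⁻¹)⁻¹ = z := by
          rw [hwz]; group
        rw [e2, e3]
        rcases hw1 q hq with h' | h'
        · right; rw [h']
        · left; rw [h', mul_assoc, hz2, mul_one]
    -- `y` has odd order, hence centralizes `Q`
    have hy2 : ∀ q ∈ Q, y * y * q * (y * y)⁻¹ = q := by
      intro q hq
      have e : y * y * q * (y * y)⁻¹ = y * (y * q * y⁻¹) * y⁻¹ := by group
      have hzy : y * z * y⁻¹ = z := by rw [hyz]; group
      rcases hy1 q hq with h | h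
      · rw [e, h]
        rcases hy1 q hq with h' | h'
        · exact h'
        · exact h
      · rw [e, h]
        have e2 : y * (q * z) * y⁻¹ = (y * q * y⁻¹) * (y * z * y⁻¹) := by group
        rw [e2, hzy, h, mul_assoc, hz2, mul_one]
    obtain ⟨j, hj⟩ := odd_orderOf hK₁ hyK
    have hyj : (y * y) ^ (j + 1) = y := by
      have : (y * y) ^ (j + 1) = y ^ (orderOf y) * y := by
        rw [hj, ← pow_two, ← pow_mul]
        rw [← pow_succ]
        congr 1
      rw [this, pow_orderOf_eq_one, one_mul]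
    have hyq : ∀ q ∈ Q, y * q = q * y := by
      intro q hq
      have hcomm : Commute (y * y) q := by
        have := hy2 q hq
        show y * y * q = q * (y * y)
        calc y * y * q = (y * y * q * (y * y)⁻¹) * (y * y) := by group
          _ = q * (y * y) := by rw [this]
      have h2 := hcomm.pow_left (j + 1)
      rw [hyj] at h2
      exact h2
    have hyQ : y ∈ Q := hQc y hyz hyq
    exact eq_one_of_two hK₁ hQ2 hyK hyQ

/-- Generation by fixed points: an odd-order group acted on by a four-group. -/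
theorem gen_four {u₁ u₂ : G} (h1 : u₁ * u₁ = 1) (h2 : u₂ * u₂ = 1) (hc : u₁ * u₂ = u₂ * u₁)
    (K : Subgroup G) (hK : Odd (Nat.card K)) (hn1 : ∀ k ∈ K, u₁ * k * u₁⁻¹ ∈ K) (hn2 : ∀ k ∈ K, u₂ * k * u₂⁻¹ ∈ K)
    (H : ∀ k ∈ K, (k * u₁ = u₁ * k ∨ k * u₂ = u₂ * k ∨ k * (u₁ * u₂) = (u₁ * u₂) * k) →
      k * u₁ = u₁ * k ∧ k * u₂ = u₂ * k) :
    ∀ k ∈ K, k * u₁ = u₁ * k ∧ k * u₂ = u₂ * k := by
  have hinvsq : ∀ y : G, y * y = 1 → y⁻¹ = y := by
    intro y hy
    calc y⁻¹ = y⁻¹ * (y * y) := by rw [hy, mul_one]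
      _ = y := by group
  have hi1 := hinvsq u₁ h1
  have hi2 := hinvsq u₂ h2
  intro k hk
  apply H k hk
  left
  obtain ⟨u₃, hu₃⟩ : ∃ x, x = u₁ * u₂ := ⟨_, rfl⟩
  have h3 : u₃ * u₃ = 1 := by
    calc u₃ * u₃ = u₁ * (u₂ * u₁) * u₂ := by rw [hu₃]; group
      _ = u₁ * (u₁ * u₂) * u₂ := by rw [hc]
      _ = (u₁ * u₁) * (u₂ * u₂) := by group
      _ = 1 := by rw [h1, h2, one_mul]
  have hi3 := hinvsq u₃ h3
  have hn3 : ∀ c ∈ K, u₃ * c * u₃⁻¹ ∈ K := by
    intro c hc'
    have := hn1 _ (hn2 c hc')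
    have e : u₃ * c * u₃⁻¹ = u₁ * (u₂ * c * u₂⁻¹) * u₁⁻¹ := by rw [hu₃]; group
    rw [e]; exact this
  obtain ⟨x₁, hx₁⟩ : ∃ x, x = k * u₁ * k⁻¹ := ⟨_, rfl⟩
  have hx₁2 : x₁ * x₁ = 1 := by
    calc x₁ * x₁ = k * (u₁ * u₁) * k⁻¹ := by rw [hx₁]; group
      _ = 1 := by rw [h1]; group
  have hx₁i := hinvsq x₁ hx₁2
  obtain ⟨g, hg⟩ : ∃ x, x = x₁ * u₂ := ⟨_, rfl⟩
  have hgi : g⁻¹ = u₂ * x₁ := by
    rw [hg, mul_inv_rev, hi2, hx₁i]
  -- `g ∈ K u₃`
  have hgK : g * u₃⁻¹ ∈ K := by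
    have e : g * u₃⁻¹ = k * (u₁ * k⁻¹ * u₁⁻¹) := by
      rw [hg, hx₁, hi3, hu₃]
      calc k * u₁ * k⁻¹ * u₂ * (u₁ * u₂) = k * u₁ * k⁻¹ * (u₂ * u₁) * u₂ := by group
        _ = k * u₁ * k⁻¹ * (u₁ * u₂) * u₂ := by rw [hc]
        _ = k * u₁ * k⁻¹ * u₁ * (u₂ * u₂) := by group
        _ = k * (u₁ * k⁻¹ * u₁) := by rw [h2]; group
        _ = k * (u₁ * k⁻¹ * u₁⁻¹) := by rw [hi1]
    rw [e]
    exact K.mul_mem hk (hn1 _ (K.inv_mem hk))
  obtain ⟨n, hn⟩ : ∃ x, x = g * u₃⁻¹ := ⟨_, rfl⟩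
  rw [← hn] at hgK
  have hgn : g = n * u₃ := by rw [hn]; group
  have hw : g * g ∈ K := by
    have e : g * g = n * (u₃ * n * u₃⁻¹) * (u₃ * u₃) := by rw [hgn]; group
    rw [e, h3, mul_one]
    exact K.mul_mem hgK (hn3 n hgK)
  obtain ⟨w, hwdef⟩ : ∃ x, x = g * g := ⟨_, rfl⟩
  rw [← hwdef] at hw
  obtain ⟨j, hj⟩ := odd_orderOf hK hw
  have hwo : w ^ (2 * j + 1) = 1 := by rw [← hj]; exact pow_orderOf_eq_one w
  obtain ⟨o, ho⟩ : ∃ x, x = 2 * j + 1 := ⟨_, rfl⟩
  rw [← ho] at hwo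
  obtain ⟨x₃, hx₃⟩ : ∃ x, x = g * w ^ j := ⟨_, rfl⟩
  have hg2o : g ^ (2 * o) = 1 := by
    rw [pow_mul, pow_two, ← hwdef]; exact hwo
  have hx₃eq : x₃ = g ^ o := by
    rw [hx₃, hwdef, ← pow_two, ← pow_mul, ← pow_succ', ho]
  have hx₃2 : x₃ * x₃ = 1 := by
    rw [hx₃eq, ← pow_add, ← two_mul]; exact hg2o
  -- `x₁` and `u₂` invert `g`, hence commute with `x₃`
  have hinv : ∀ y : G, y * y = 1 → y * g * y⁻¹ = g⁻¹ → y * x₃ = x₃ * y := by
    intro y hy hyg
    have h5 : y * g ^ o * y⁻¹ = (g⁻¹) ^ o := by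
      rw [← hyg, conj_pow]
    have h6 : (g⁻¹) ^ o = g ^ o := by
      rw [inv_pow]
      have : g ^ o * g ^ o = 1 := by rw [← pow_add, ← two_mul]; exact hg2o
      exact inv_eq_of_mul_eq_one_left this
    rw [hx₃eq]
    calc y * g ^ o = (y * g ^ o * y⁻¹) * y := by group
      _ = g ^ o * y := by rw [h5, h6]
  have hx₁x₃ : x₁ * x₃ = x₃ * x₁ := by
    apply hinv x₁ hx₁2
    rw [hgi, hg, hx₁i]
    calc x₁ * (x₁ * u₂) * x₁ = (x₁ * x₁) * u₂ * x₁ := by group
      _ = u₂ * x₁ := by rw [hx₁2, one_mul]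
  have hu₂x₃ : u₂ * x₃ = x₃ * u₂ := by
    apply hinv u₂ h2
    rw [hgi, hg, hi2]
    calc u₂ * (x₁ * u₂) * u₂ = u₂ * x₁ * (u₂ * u₂) := by group
      _ = u₂ * x₁ := by rw [h2, mul_one]
  -- `x₃` is conjugate to `u₃` under `K`
  have hw' : x₃ * u₃ ∈ K := by
    have e : x₃ * u₃ = (g * u₃⁻¹) * (u₃ * w ^ j * u₃⁻¹) * (u₃ * u₃) := by
      rw [hx₃]; group
    rw [e, h3, mul_one, ← hn]
    exact K.mul_mem hgK (hn3 _ (K.pow_mem hw j))
  obtain ⟨c, hcdef⟩ : ∃ x, x = x₃ * u₃ := ⟨_, rfl⟩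
  rw [← hcdef] at hw'
  obtain ⟨i, hi⟩ := odd_orderOf hK hw'
  have hci : u₃ * c * u₃⁻¹ = c⁻¹ := by
    rw [hcdef, mul_inv_rev, hi3, hinvsq x₃ hx₃2]
    calc u₃ * (x₃ * u₃) * u₃ = u₃ * x₃ * (u₃ * u₃) := by group
      _ = u₃ * x₃ := by rw [h3, mul_one]
  obtain ⟨a, ha⟩ : ∃ x, x = c ^ (i + 1) := ⟨_, rfl⟩
  have haK : a ∈ K := ha ▸ K.pow_mem hw' _
  have hac : a * a = c := by
    rw [ha, ← pow_add]
    have : i + 1 + (i + 1) = orderOf c + 1 := by omega
    rw [this, pow_succ, pow_orderOf_eq_one, one_mul]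
  have hau : u₃ * a * u₃⁻¹ = a⁻¹ := by
    rw [ha, ← conj_pow, hci, inv_pow]
  have hax₃ : a * u₃ * a⁻¹ = x₃ := by
    have e1 : u₃ * a⁻¹ = a * u₃ := by
      have : u₃ * a⁻¹ * u₃⁻¹ = a := by
        have h7 : (u₃ * a * u₃⁻¹)⁻¹ = u₃ * a⁻¹ * u₃⁻¹ := by group
        rw [← h7, hau, inv_inv]
      calc u₃ * a⁻¹ = (u₃ * a⁻¹ * u₃⁻¹) * u₃ := by group
        _ = a * u₃ := by rw [this]
    calc a * u₃ * a⁻¹ = a * (u₃ * a⁻¹) := by group
      _ = a * (a * u₃) := by rw [e1]
      _ = (a * a) * u₃ := by group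
      _ = c * u₃ := by rw [hac]
      _ = x₃ * (u₃ * u₃) := by rw [hcdef]; group
      _ = x₃ := by rw [h3, mul_one]
  -- a general reduction
  have key : ∀ y : G, y * y = 1 → y * x₃ = x₃ * y → ∀ u : G, (u = u₁ ∨ u = u₂) → a⁻¹ * y * a * u⁻¹ ∈ K →
      a⁻¹ * y * a = u := by
    intro y hy hyx₃ u hu hyK
    obtain ⟨d, hd⟩ : ∃ x, x = a⁻¹ * y * a * u⁻¹ := ⟨_, rfl⟩
    rw [← hd] at hyK
    have hu2 : u * u = 1 := by
      rcases hu with h | h <;> rw [h] <;> assumption
    have hui := hinvsq u hu2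
    have hu3 : u * u₃ = u₃ * u := by
      rcases hu with h | h <;> rw [h, hu₃]
      · calc u₁ * (u₁ * u₂) = u₁ * (u₂ * u₁) := by rw [hc]
          _ = u₁ * u₂ * u₁ := by group
      · calc u₂ * (u₁ * u₂) = (u₂ * u₁) * u₂ := by group
          _ = (u₁ * u₂) * u₂ := by rw [hc]
    have hy3 : (a⁻¹ * y * a) * u₃ = u₃ * (a⁻¹ * y * a) := by
      have e : x₃ = a * u₃ * a⁻¹ := hax₃.symm
      rw [e] at hyx₃
      calc (a⁻¹ * y * a) * u₃ = a⁻¹ * (y * (a * u₃ * a⁻¹)) * a := by group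
        _ = a⁻¹ * ((a * u₃ * a⁻¹) * y) * a := by rw [hyx₃]
        _ = u₃ * (a⁻¹ * y * a) := by group
    have hd3 : d * u₃ = u₃ * d := by
      rw [hd, hui]
      calc a⁻¹ * y * a * u * u₃ = (a⁻¹ * y * a) * (u * u₃) := by group
        _ = (a⁻¹ * y * a) * (u₃ * u) := by rw [hu3]
        _ = ((a⁻¹ * y * a) * u₃) * u := by group
        _ = (u₃ * (a⁻¹ * y * a)) * u := by rw [hy3]
        _ = u₃ * (a⁻¹ * y * a * u) := by group
    obtain ⟨hd1, hd2⟩ := H d hyK (Or.inr (Or.inr (by rw [← hu₃]; exact hd3)))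
    have hdu : d * u = u * d := by
      rcases hu with h | h <;> rw [h] <;> assumption
    have hdd : d * d = 1 := by
      have e0 : (a⁻¹ * y * a) = d * u := by rw [hd]; group
      have e1 : (a⁻¹ * y * a) * (a⁻¹ * y * a) = 1 := by
        calc (a⁻¹ * y * a) * (a⁻¹ * y * a) = a⁻¹ * (y * y) * a := by group
          _ = 1 := by rw [hy]; group
      rw [e0] at e1
      calc d * d = d * d * (u * u) := by rw [hu2, mul_one]
        _ = d * (d * u) * u := by group
        _ = d * (u * d) * u := by rw [hdu]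
        _ = (d * u) * (d * u) := by group
        _ = 1 := e1
    have hd1' : d = 1 := eq_one_of_sq hK hyK hdd
    have : a⁻¹ * y * a = d * u := by rw [hd]; group
    rw [this, hd1', one_mul]
  -- apply it to `u₂`
  have h₂ : a⁻¹ * u₂ * a = u₂ := by
    apply key u₂ h2 hu₂x₃ u₂ (Or.inr rfl)
    have e : a⁻¹ * u₂ * a * u₂⁻¹ = a⁻¹ * (u₂ * a * u₂⁻¹) := by group
    rw [e]
    exact K.mul_mem (K.inv_mem haK) (hn2 a haK)
  have ha2 : a * u₂ = u₂ * a := by
    calc a * u₂ = a * (a⁻¹ * u₂ * a) := by rw [h₂]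
      _ = u₂ * a := by group
  have ha1 := (H a haK (Or.inr (Or.inl ha2))).1
  -- apply it to `x₁`
  have h₁ : a⁻¹ * x₁ * a = u₁ := by
    apply key x₁ hx₁2 hx₁x₃ u₁ (Or.inl rfl)
    have e : a⁻¹ * x₁ * a * u₁⁻¹ = (a⁻¹ * k) * (u₁ * (k⁻¹ * a) * u₁⁻¹) := by rw [hx₁]; group
    rw [e]
    exact K.mul_mem (K.mul_mem (K.inv_mem haK) hk) (hn1 _ (K.mul_mem (K.inv_mem hk) haK))
  have hx₁u : x₁ = u₁ := by
    calc x₁ = a * (a⁻¹ * x₁ * a) * a⁻¹ := by group
      _ = a * u₁ * a⁻¹ := by rw [h₁]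
      _ = u₁ * a * a⁻¹ := by rw [ha1]
      _ = u₁ := by group
  calc k * u₁ = (k * u₁ * k⁻¹) * k := by group
    _ = u₁ * k := by rw [← hx₁, hx₁u]

/-- A subgroup of index two is normalized. -/
theorem idx2_normalizer {R T : Subgroup G} (hRT : R ≤ T) (h : Nat.card T = 2 * Nat.card R) :
    T ≤ normalizer (R : Set G) := by
  have hc : Nat.card ↥(R.subgroupOf T) = Nat.card R :=
    Nat.card_congr (subgroupOfEquivOfLe hRT).toEquiv
  have hi : (R.subgroupOf T).index = 2 := by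
    have h1 := Subgroup.card_mul_index (R.subgroupOf T)
    rw [hc, h, mul_comm] at h1
    have h2 : 0 < Nat.card R := Nat.card_pos
    exact Nat.eq_of_mul_eq_mul_left h2 (by linarith)
  have hn : (R.subgroupOf T).Normal := Subgroup.normal_of_index_eq_two hi
  have key : ∀ t ∈ T, ∀ r ∈ R, t * r * t⁻¹ ∈ R := by
    intro t ht r hr
    have h1 : (⟨r, hRT hr⟩ : ↥T) ∈ R.subgroupOf T := hr
    have h2 := hn.conj_mem _ h1 ⟨t, ht⟩
    exact h2
  intro t ht
  rw [mem_normalizer_iff]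
  intro r
  refine ⟨key t ht r, fun hr => ?_⟩
  have := key t⁻¹ (T.inv_mem ht) _ hr
  simpa [mul_assoc] using this

/-- The non-central case. -/
theorem noncentral (hchar : ∀ T : Subgroup G, IsPGroup 2 T → T ≠ ⊥ → IsOfCharacteristicTwo ↥(normalizer (T : Set G)))
    (P : Sylow 2 G) (U : Subgroup G) (hUP : U ≤ (P : Subgroup G))
    (hUn : (P : Subgroup G) ≤ normalizer (U : Set G)) (hU4 : IsKleinFour ↥U)
    (hcyc : IsCyclic ↥((P : Subgroup G) ⊓ centralizer ((P : Subgroup G) : Set G)))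
    {z : G} (hzU : z ∈ U) (hz1 : z ≠ 1) (hzc : ∀ p ∈ (P : Subgroup G), p * z = z * p)
    {u : G} (huU : u ∈ U) (hu1 : u ≠ 1) (hunc : ¬ ∀ p ∈ (P : Subgroup G), p * u = u * p)
    (K₁ : Subgroup G) (hK₁ : Odd (Nat.card K₁)) (hK₁u : ∀ k ∈ K₁, k * u = u * k)
    (hK₁U : ∀ v ∈ U, ∀ k ∈ K₁, v * k * v⁻¹ ∈ K₁) : ∀ v ∈ U, ∀ k ∈ K₁, k * v = v * k := by
  classical
  have : Fact (Nat.Prime 2) := ⟨Nat.prime_two⟩
  have hsq : ∀ a ∈ U, a * a = 1 := by
    intro a ha
    have := IsKleinFour.mul_self (⟨a, ha⟩ : ↥U)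
    simpa using congrArg Subtype.val this
  have hcomm : ∀ a ∈ U, ∀ b ∈ U, a * b = b * a := by
    intro a ha b hb
    have h1 : (a * b) * (a * b) = 1 := hsq _ (U.mul_mem ha hb)
    have h2 := hsq a ha
    have h3 := hsq b hb
    calc a * b = a * b * ((a * b) * (b * a)) := by
          have : (a * b) * (b * a) = 1 := by
            calc (a * b) * (b * a) = a * (b * b) * a := by group
              _ = 1 := by rw [h3, mul_one, h2]
          rw [this, mul_one]
      _ = ((a * b) * (a * b)) * (b * a) := by group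
      _ = b * a := by rw [h1, one_mul]
  have hz2 := hsq z hzU
  have hu2 := hsq u huU
  have hzi : z⁻¹ = z := by
    calc z⁻¹ = z⁻¹ * (z * z) := by rw [hz2, mul_one]
      _ = z := by group
  have hui : u⁻¹ = u := by
    calc u⁻¹ = u⁻¹ * (u * u) := by rw [hu2, mul_one]
      _ = u := by group
  have hzu : z ≠ u := by
    rintro rfl
    exact hunc hzc
  have hzuc := hcomm z hzU u huU
  -- uniqueness of involutions in the center of `P`
  have huniq : ∀ a ∈ (P : Subgroup G), (∀ p ∈ (P : Subgroup G), p * a = a * p) → a * a = 1 → a = 1 ∨ a = z := by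
    intro a haP hac haa
    by_contra hcon
    rw [not_or] at hcon
    obtain ⟨ha1, haz⟩ := hcon
    have hmem : ∀ b ∈ (P : Subgroup G), (∀ p ∈ (P : Subgroup G), p * b = b * p) →
        b ∈ (P : Subgroup G) ⊓ centralizer ((P : Subgroup G) : Set G) := by
      intro b hb hbc
      refine Subgroup.mem_inf.2 ⟨hb, ?_⟩
      rw [mem_centralizer_iff]
      intro p hp
      exact (hbc p hp)
    have hzZ := hmem z (hUP hzU) hzc
    have haZ := hmem a haP hac
    generalize (P : Subgroup G) ⊓ centralizer ((P : Subgroup G) : Set G) = Z at *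
    haveI : Fintype Z := Fintype.ofFinite Z
    have h1 := IsCyclic.card_pow_eq_one_le (α := Z) (n := 2) (by norm_num)
    have h2 : ({1, ⟨a, haZ⟩, ⟨z, hzZ⟩} : Finset Z) ⊆ Finset.univ.filter (fun x : Z => x ^ 2 = 1) := by
      intro x hx
      simp only [Finset.mem_insert, Finset.mem_singleton] at hx
      simp only [Finset.mem_filter, Finset.mem_univ, true_and]
      rcases hx with rfl | rfl | rfl
      · simp
      · rw [pow_two]; exact Subtype.ext haa
      · rw [pow_two]; exact Subtype.ext hz2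
    have h3 := Finset.card_le_card h2
    have h4 : ({1, ⟨a, haZ⟩, ⟨z, hzZ⟩} : Finset Z).card = 3 := by
      rw [Finset.card_eq_three]
      refine ⟨1, ⟨a, haZ⟩, ⟨z, hzZ⟩, ?_, ?_, ?_, rfl⟩
      · intro h; exact ha1 (congrArg Subtype.val h).symm
      · intro h; exact hz1 (congrArg Subtype.val h).symm
      · intro h; exact haz (congrArg Subtype.val h)
    omega
  -- elements of `U`
  have hUel : ∀ v ∈ U, v = 1 ∨ v = z ∨ v = u ∨ v = z * u := by
    intro v hv
    by_contra hcon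
    rw [not_or, not_or, not_or] at hcon
    obtain ⟨c1, c2, c3, c4⟩ := hcon
    have h1 : (⟨z, hzU⟩ : ↥U) ≠ 1 := fun h => hz1 (congrArg Subtype.val h)
    have h2 : (⟨u, huU⟩ : ↥U) ≠ 1 := fun h => hu1 (congrArg Subtype.val h)
    have h3 : (⟨z, hzU⟩ : ↥U) ≠ ⟨u, huU⟩ := fun h => hzu (congrArg Subtype.val h)
    have h4 : (⟨v, hv⟩ : ↥U) ≠ 1 := fun h => c1 (congrArg Subtype.val h)
    have h5 : (⟨v, hv⟩ : ↥U) ≠ ⟨z, hzU⟩ := fun h => c2 (congrArg Subtype.val h)
    have h6 : (⟨v, hv⟩ : ↥U) ≠ ⟨u, huU⟩ := fun h => c3 (congrArg Subtype.val h)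
    have h7 := IsKleinFour.eq_mul_of_ne_all h1 h2 h3 h4 h5 h6
    exact c4 (by simpa using congrArg Subtype.val h7)
  -- action of `P` on `u`
  have hact : ∀ p ∈ (P : Subgroup G), p * u * p⁻¹ = u ∨ p * u * p⁻¹ = z * u := by
    intro p hp
    have h1 : p * u * p⁻¹ ∈ U := (mem_normalizer_iff.1 (hUn hp) u).1 huU
    rcases hUel _ h1 with h | h | h | h
    · exfalso
      apply hu1
      have := congrArg (fun w => p⁻¹ * w * p) h
      simpa [mul_assoc] using this
    · exfalso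
      apply hzu
      have h2 : p * z * p⁻¹ = z := by rw [hzc p hp]; group
      have h3 : p * u * p⁻¹ = p * z * p⁻¹ := by rw [h, h2]
      exact (mul_left_cancel (mul_right_cancel h3)).symm
    · exact Or.inl h
    · exact Or.inr h
  have hcomm_of : ∀ p, p * u * p⁻¹ = u → p * u = u * p := by
    intro p hp
    calc p * u = (p * u * p⁻¹) * p := by group
      _ = u * p := by rw [hp]
  have hof_comm : ∀ p, p * u = u * p → p * u * p⁻¹ = u := by
    intro p hp
    rw [hp]; group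
  -- an element of `P` moving `u`
  obtain ⟨x, hxP, hxu⟩ : ∃ x ∈ (P : Subgroup G), ¬ x * u = u * x := by
    by_contra hcon
    apply hunc
    intro p hp
    by_contra h
    exact hcon ⟨p, hp, h⟩
  have hxu' : x * u * x⁻¹ = z * u := by
    rcases hact x hxP with h | h
    · exact absurd (hcomm_of x h) hxu
    · exact h
  have hxz : x * z * x⁻¹ = z := by rw [hzc x hxP]; group
  -- the subgroup `R`
  set R : Subgroup G := (P : Subgroup G) ⊓ centralizer ({u} : Set G) with hRdef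
  have hRmem : ∀ r, r ∈ R ↔ r ∈ (P : Subgroup G) ∧ r * u = u * r := by
    intro r
    rw [hRdef, Subgroup.mem_inf, mem_centralizer_singleton_iff]
  have hRP : R ≤ (P : Subgroup G) := inf_le_left
  -- the index of `R` in `P`
  have hidx : (R.subgroupOf (P : Subgroup G)).index = 2 := by
    rw [Subgroup.index_eq_two_iff]
    refine ⟨⟨x, hxP⟩, ?_⟩
    intro b
    have hb := b.2
    have e1 : b * ⟨x, hxP⟩ ∈ R.subgroupOf (P : Subgroup G) ↔ (b : G) * x * u = u * (b * x) := by
      rw [Subgroup.mem_subgroupOf, hRmem]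
      constructor
      · exact fun h => h.2
      · exact fun h => ⟨(b * ⟨x, hxP⟩).2, h⟩
    have e2 : b ∈ R.subgroupOf (P : Subgroup G) ↔ (b : G) * u = u * b := by
      rw [Subgroup.mem_subgroupOf, hRmem]
      constructor
      · exact fun h => h.2
      · exact fun h => ⟨b.2, h⟩
    rw [e1, e2]
    have hbz : (b : G) * z * (b : G)⁻¹ = z := by rw [hzc b b.2]; group
    have e3 : ((b : G) * x) * u * ((b : G) * x)⁻¹ = z * ((b : G) * u * (b : G)⁻¹) := by
      calc ((b : G) * x) * u * ((b : G) * x)⁻¹ = (b : G) * (x * u * x⁻¹) * (b : G)⁻¹ := by group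
        _ = (b : G) * (z * u) * (b : G)⁻¹ := by rw [hxu']
        _ = ((b : G) * z * (b : G)⁻¹) * ((b : G) * u * (b : G)⁻¹) := by group
        _ = z * ((b : G) * u * (b : G)⁻¹) := by rw [hbz]
    rcases hact b b.2 with h | h
    · right
      refine ⟨hcomm_of _ h, ?_⟩
      intro h'
      have h2 := hof_comm _ h'
      rw [e3, h] at h2
      exact hxu (hcomm_of x (by rw [hxu']; exact h2))
    · left
      refine ⟨hcomm_of _ (by rw [e3, h, ← mul_assoc, hz2, one_mul]), ?_⟩
      intro h'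
      have h2 := hof_comm _ h'
      rw [h] at h2
      exact hz1 (by simpa using h2)
  have hcardRP : Nat.card (P : Subgroup G) = 2 * Nat.card R := by
    have hc : Nat.card ↥(R.subgroupOf (P : Subgroup G)) = Nat.card R :=
      Nat.card_congr (subgroupOfEquivOfLe hRP).toEquiv
    have h1 := Subgroup.card_mul_index (R.subgroupOf (P : Subgroup G))
    rw [hc, hidx] at h1
    omega
  -- `U` is central in `R`
  have hRU : ∀ r ∈ R, ∀ v ∈ U, r * v = v * r := by
    intro r hr v hv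
    obtain ⟨hrP, hru⟩ := (hRmem r).1 hr
    rcases hUel v hv with rfl | rfl | rfl | rfl
    · simp
    · exact hzc r hrP
    · exact hru
    · calc r * (z * u) = (r * z) * u := by group
        _ = (z * r) * u := by rw [hzc r hrP]
        _ = z * (r * u) := by group
        _ = z * (u * r) := by rw [hru]
        _ = z * u * r := by group
  have hUR : U ≤ R := by
    intro v hv
    rw [hRmem]
    exact ⟨hUP hv, hcomm v hv u huU⟩
  -- a Sylow subgroup of `C(u)` containing `R`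
  set C := centralizer ({u} : Set G) with hC
  have hCmem : ∀ g, g ∈ C ↔ g * u = u * g := fun g => mem_centralizer_singleton_iff
  have hR2 : IsPGroup 2 R := P.isPGroup'.to_le hRP
  have hR'2 : IsPGroup 2 (R.subgroupOf C) := hR2.comap_subtype
  obtain ⟨S, hS⟩ := hR'2.exists_le_sylow
  set R₁ : Subgroup G := (S : Subgroup C).map C.subtype with hR₁
  have hR₁2 : IsPGroup 2 R₁ := S.isPGroup'.map _
  have hRR₁ : R ≤ R₁ := by
    intro r hr
    have hrC : r ∈ C := (inf_le_right : R ≤ C) hr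
    exact ⟨⟨r, hrC⟩, hS hr, rfl⟩
  have hR₁C : R₁ ≤ C := Subgroup.map_subtype_le _
  intro v hvU k hk
  by_cases hcase : R₁ ≤ R
  · -- case (a)
    obtain ⟨Q, hQ2, hQu, hQn, huQ, hQc⟩ := core_data hchar hu1 hu2
    have hQC : Q ≤ C := fun q hq => (hCmem q).2 (hQu q hq)
    have hQR₁ : Q ≤ R₁ := by
      have hn : (Q.subgroupOf C).Normal := by
        constructor
        intro q hq g
        exact hQn g ((hCmem g).1 g.2) q hq
      have hp : IsPGroup 2 (Q.subgroupOf C) := hQ2.comap_subtype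
      have := hp.le_sylow_of_normal S
      intro q hq
      exact ⟨⟨q, hQC hq⟩, this hq, rfl⟩
    have hQR : Q ≤ R := hQR₁.trans hcase
    have hvQ : v ∈ Q := by
      apply hQc v (hcomm v hvU u huU)
      intro q hq
      exact (hRU q (hQR hq) v hvU).symm
    have hkC : k ∈ C := (hCmem k).2 (hK₁u k hk)
    have hyQ : k * v * k⁻¹ * v⁻¹ ∈ Q :=
      Q.mul_mem (hQn k (hK₁u k hk) v hvQ) (Q.inv_mem hvQ)
    have hyK : k * v * k⁻¹ * v⁻¹ ∈ K₁ := by
      have e : k * v * k⁻¹ * v⁻¹ = k * (v * k⁻¹ * v⁻¹) := by group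
      rw [e]
      exact K₁.mul_mem hk (hK₁U v hvU _ (K₁.inv_mem hk))
    have hy1 := eq_one_of_two hK₁ hQ2 hyK hyQ
    have h1 : k * v * k⁻¹ = v := by
      have := congrArg (· * v) hy1
      simpa [mul_assoc] using this
    calc k * v = k * v * k⁻¹ * k := by group
      _ = v * k := by rw [h1]
  · -- case (b)
    obtain ⟨P₁, hP₁⟩ := hR₁2.exists_le_sylow
    have hcardP₁ : Nat.card (P₁ : Subgroup G) = Nat.card (P : Subgroup G) :=
      Nat.card_congr (Sylow.equiv P₁ P).toEquiv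
    have hR₁P₁ : R₁ = P₁ := by
      apply Subgroup.eq_of_le_of_card_ge hP₁
      obtain ⟨m, hm⟩ := Subgroup.card_dvd_of_le hP₁
      have h1 : Nat.card R < Nat.card R₁ := by
        by_contra hcon
        rw [not_lt] at hcon
        exact hcase (Subgroup.eq_of_le_of_card_ge hRR₁ hcon).ge
      have h2 : 0 < Nat.card R₁ := Nat.card_pos
      rw [hcardP₁, hcardRP] at hm
      have hm1 : m < 2 := by
        by_contra hcon
        rw [not_lt] at hcon
        nlinarith
      have hm0 : m ≠ 0 := by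
        rintro rfl
        have : 0 < Nat.card R := Nat.card_pos
        omega
      have hm2 : m = 1 := by omega
      rw [hcardP₁, hcardRP, hm, hm2, mul_one]
    have hP₁C : ∀ p ∈ (P₁ : Subgroup G), p * u = u * p := by
      intro p hp
      exact (hCmem p).1 (hR₁C (hR₁P₁ ▸ hp))
    have hRP₁ : R ≤ (P₁ : Subgroup G) := hR₁P₁ ▸ hRR₁
    have hPN := idx2_normalizer hRP hcardRP
    have hP₁N := idx2_normalizer hRP₁ (hcardP₁.trans hcardRP)
    -- conjugate `P` to `P₁` inside `N(R)`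
    obtain ⟨g, hg⟩ := MulAction.exists_smul_eq ↥(normalizer (R : Set G)) (P.subtype hPN) (P₁.subtype hP₁N)
    have hg' : ((g : G) • P : Sylow 2 G) = P₁ := by
      rw [Sylow.smul_subtype hPN g] at hg
      exact Sylow.subtype_injective hg
    obtain ⟨g₀, hg₀N⟩ := g
    simp only at hg'
    have hconj : ∀ y, y ∈ (P₁ : Subgroup G) ↔ g₀⁻¹ * y * g₀ ∈ (P : Subgroup G) := by
      intro y
      rw [← hg', Sylow.coe_subgroup_smul, Subgroup.mem_pointwise_smul_iff_inv_smul_mem]
      simp [MulAut.smul_def, MulAut.conj_inv_apply]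
    have hg₀R := mem_normalizer_iff.1 hg₀N
    have hg₀R' : ∀ r ∈ R, g₀⁻¹ * r * g₀ ∈ R := by
      intro r hr
      have := (hg₀R (g₀⁻¹ * r * g₀)).2 (by
        have e : g₀ * (g₀⁻¹ * r * g₀) * g₀⁻¹ = r := by group
        rw [e]; exact hr)
      exact this
    -- `g₀` conjugates `z` to `u`
    have hz' : g₀⁻¹ * u * g₀ = z := by
      have haP : g₀⁻¹ * u * g₀ ∈ (P : Subgroup G) := (hconj u).1 (hRP₁ (hUR huU))
      have hac : ∀ p ∈ (P : Subgroup G), p * (g₀⁻¹ * u * g₀) = (g₀⁻¹ * u * g₀) * p := by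
        intro p hp
        have h1 : g₀ * p * g₀⁻¹ ∈ (P₁ : Subgroup G) := by
          rw [hconj]
          have e : g₀⁻¹ * (g₀ * p * g₀⁻¹) * g₀ = p := by group
          rw [e]; exact hp
        have h2 := hP₁C _ h1
        calc p * (g₀⁻¹ * u * g₀) = g₀⁻¹ * ((g₀ * p * g₀⁻¹) * u) * g₀ := by group
          _ = g₀⁻¹ * (u * (g₀ * p * g₀⁻¹)) * g₀ := by rw [h2]
          _ = (g₀⁻¹ * u * g₀) * p := by group
      have haa : (g₀⁻¹ * u * g₀) * (g₀⁻¹ * u * g₀) = 1 := by
        calc (g₀⁻¹ * u * g₀) * (g₀⁻¹ * u * g₀) = g₀⁻¹ * (u * u) * g₀ := by group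
          _ = 1 := by rw [hu2]; group
      rcases huniq _ haP hac haa with h | h
      · exfalso
        apply hu1
        have := congrArg (fun w => g₀ * w * g₀⁻¹) h
        simpa [mul_assoc] using this
      · exact h
    -- the involutions of `Z(R)` are those of `U`
    have hxsq : x * x ∈ R := by
      rw [hRmem]
      refine ⟨P.mul_mem hxP hxP, ?_⟩
      have e : (x * x) * u * (x * x)⁻¹ = u := by
        calc (x * x) * u * (x * x)⁻¹ = x * (x * u * x⁻¹) * x⁻¹ := by group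
          _ = x * (z * u) * x⁻¹ := by rw [hxu']
          _ = (x * z * x⁻¹) * (x * u * x⁻¹) := by group
          _ = z * (z * u) := by rw [hxz, hxu']
          _ = u := by rw [← mul_assoc, hz2, one_mul]
      exact hcomm_of _ e
    have hPcases : ∀ p ∈ (P : Subgroup G), p ∈ R ∨ x⁻¹ * p ∈ R := by
      intro p hp
      rcases hact p hp with h | h
      · left; rw [hRmem]; exact ⟨hp, hcomm_of _ h⟩
      · right
        rw [hRmem]
        refine ⟨P.mul_mem (P.inv_mem hxP) hp, ?_⟩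
        have hxi : x⁻¹ * (z * u) * x = u := by
          rw [← hxu']; group
        apply hcomm_of
        calc (x⁻¹ * p) * u * (x⁻¹ * p)⁻¹ = x⁻¹ * (p * u * p⁻¹) * x := by group
          _ = x⁻¹ * (z * u) * x := by rw [h]
          _ = u := hxi
    have hcentral : ∀ c ∈ R, (∀ r ∈ R, c * r = r * c) → x * c * x⁻¹ = c →
        ∀ p ∈ (P : Subgroup G), p * c = c * p := by
      intro c hc hcR hcx p hp
      have hcx' : x * c = c * x := by
        calc x * c = (x * c * x⁻¹) * x := by group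
          _ = c * x := by rw [hcx]
      rcases hPcases p hp with h | h
      · exact (hcR p h).symm
      · have e : p = x * (x⁻¹ * p) := by group
        rw [e]
        calc x * (x⁻¹ * p) * c = x * ((x⁻¹ * p) * c) := by group
          _ = x * (c * (x⁻¹ * p)) := by rw [hcR _ h]
          _ = (x * c) * (x⁻¹ * p) := by group
          _ = (c * x) * (x⁻¹ * p) := by rw [hcx']
          _ = c * (x * (x⁻¹ * p)) := by group
    have hxR := mem_normalizer_iff.1 (hPN hxP)
    have hA : ∀ a ∈ R, (∀ r ∈ R, a * r = r * a) → a * a = 1 → a ∈ U := by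
      intro a haR hac haa
      obtain ⟨a', ha'⟩ : ∃ y, y = x * a * x⁻¹ := ⟨_, rfl⟩
      have ha'R : a' ∈ R := ha' ▸ (hxR a).1 haR
      have hxiR : ∀ r ∈ R, x⁻¹ * r * x ∈ R := by
        intro r hr
        apply (hxR _).2
        have e : x * (x⁻¹ * r * x) * x⁻¹ = r := by group
        rw [e]; exact hr
      have ha'c : ∀ r ∈ R, a' * r = r * a' := by
        intro r hr
        have h1 := hac _ (hxiR r hr)
        rw [ha']
        calc x * a * x⁻¹ * r = x * (a * (x⁻¹ * r * x)) * x⁻¹ := by group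
          _ = x * ((x⁻¹ * r * x) * a) * x⁻¹ := by rw [h1]
          _ = r * (x * a * x⁻¹) := by group
      have hxa' : x * a' * x⁻¹ = a := by
        rw [ha']
        calc x * (x * a * x⁻¹) * x⁻¹ = (x * x) * a * (x * x)⁻¹ := by group
          _ = a * (x * x) * (x * x)⁻¹ := by rw [(hac _ hxsq).symm]
          _ = a := by group
      have ha'a' : a' * a' = 1 := by
        rw [ha']
        calc x * a * x⁻¹ * (x * a * x⁻¹) = x * (a * a) * x⁻¹ := by group
          _ = 1 := by rw [haa]; group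
      have haa' : a * a' = a' * a := hac a' ha'R
      have hbR : a * a' ∈ R := R.mul_mem haR ha'R
      have hbc : ∀ r ∈ R, (a * a') * r = r * (a * a') := by
        intro r hr
        calc (a * a') * r = a * (a' * r) := by group
          _ = a * (r * a') := by rw [ha'c r hr]
          _ = (a * r) * a' := by group
          _ = (r * a) * a' := by rw [hac r hr]
          _ = r * (a * a') := by group
      have hbx : x * (a * a') * x⁻¹ = a * a' := by
        calc x * (a * a') * x⁻¹ = (x * a * x⁻¹) * (x * a' * x⁻¹) := by group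
          _ = a' * a := by rw [hxa', ← ha']
          _ = a * a' := haa'.symm
      have hbb : (a * a') * (a * a') = 1 := by
        calc (a * a') * (a * a') = a * (a' * a) * a' := by group
          _ = a * (a * a') * a' := by rw [haa']
          _ = (a * a) * (a' * a') := by group
          _ = 1 := by rw [haa, ha'a', one_mul]
      have hai : a⁻¹ = a := by
        calc a⁻¹ = a⁻¹ * (a * a) := by rw [haa, mul_one]
          _ = a := by group
      rcases huniq _ (hRP hbR) (hcentral _ hbR hbc hbx) hbb with hb | hb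
      · -- `a' = a`
        have h1 : a' = a := by
          have : a' = a⁻¹ * (a * a') := by group
          rw [this, hb, mul_one, hai]
        have h2 : x * a * x⁻¹ = a := by rw [← ha', h1]
        rcases huniq a (hRP haR) (hcentral a haR hac h2) haa with h | h
        · rw [h]; exact U.one_mem
        · rw [h]; exact hzU
      · -- `a' = a z`
        have h1 : a' = a * z := by
          have : a' = a⁻¹ * (a * a') := by group
          rw [this, hb, hai]
        have hcR : a * u ∈ R := R.mul_mem haR (hUR huU)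
        have hcc : ∀ r ∈ R, (a * u) * r = r * (a * u) := by
          intro r hr
          calc (a * u) * r = a * (u * r) := by group
            _ = a * (r * u) := by rw [hRU r hr u huU]
            _ = (a * r) * u := by group
            _ = (r * a) * u := by rw [hac r hr]
            _ = r * (a * u) := by group
        have hcx : x * (a * u) * x⁻¹ = a * u := by
          calc x * (a * u) * x⁻¹ = (x * a * x⁻¹) * (x * u * x⁻¹) := by group
            _ = (a * z) * (z * u) := by rw [← ha', h1, hxu']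
            _ = a * (z * z) * u := by group
            _ = a * u := by rw [hz2, mul_one]
        have hau : a * u = u * a := hac u (hUR huU)
        have hcs : (a * u) * (a * u) = 1 := by
          calc (a * u) * (a * u) = a * (u * a) * u := by group
            _ = a * (a * u) * u := by rw [hau]
            _ = (a * a) * (u * u) := by group
            _ = 1 := by rw [haa, hu2, one_mul]
        rcases huniq _ (hRP hcR) (hcentral _ hcR hcc hcx) hcs with h | h
        · have : a = u := by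
            have e : a = (a * u) * u⁻¹ := by group
            rw [e, h, one_mul, hui]
          rw [this]; exact huU
        · have : a = z * u := by
            have e : a = (a * u) * u⁻¹ := by group
            rw [e, h, hui]
          rw [this]; exact U.mul_mem hzU huU
    -- `g₀` normalizes `U`
    have hgU : ∀ w ∈ U, g₀ * w * g₀⁻¹ ∈ U := by
      intro w hw
      apply hA
      · exact (hg₀R w).1 (hUR hw)
      · intro r hr
        have h1 := hRU _ (hg₀R' r hr) w hw
        calc (g₀ * w * g₀⁻¹) * r = g₀ * (w * (g₀⁻¹ * r * g₀)) * g₀⁻¹ := by group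
          _ = g₀ * ((g₀⁻¹ * r * g₀) * w) * g₀⁻¹ := by rw [h1]
          _ = r * (g₀ * w * g₀⁻¹) := by group
      · calc (g₀ * w * g₀⁻¹) * (g₀ * w * g₀⁻¹) = g₀ * (w * w) * g₀⁻¹ := by group
          _ = 1 := by rw [hsq w hw]; group
    have hgU' : ∀ w ∈ U, g₀⁻¹ * w * g₀ ∈ U := by
      intro w hw
      apply hA
      · exact hg₀R' w (hUR hw)
      · intro r hr
        have h1 := hRU _ ((hg₀R r).1 hr) w hw
        calc (g₀⁻¹ * w * g₀) * r = g₀⁻¹ * (w * (g₀ * r * g₀⁻¹)) * g₀ := by group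
          _ = g₀⁻¹ * ((g₀ * r * g₀⁻¹) * w) * g₀ := by rw [h1]
          _ = r * (g₀⁻¹ * w * g₀) := by group
      · calc (g₀⁻¹ * w * g₀) * (g₀⁻¹ * w * g₀) = g₀⁻¹ * (w * w) * g₀ := by group
          _ = 1 := by rw [hsq w hw]; group
    -- transport
    set K₂ : Subgroup G := K₁.map (MulAut.conj g₀⁻¹).toMonoidHom with hK₂
    have hK₂mem : ∀ c ∈ K₁, g₀⁻¹ * c * g₀ ∈ K₂ := by
      intro c hc
      exact ⟨c, hc, by simp [MulAut.conj_apply]⟩
    have hK₂odd : Odd (Nat.card K₂) := by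
      have : Nat.card K₂ = Nat.card K₁ :=
        Nat.card_congr (K₁.equivMapOfInjective _ (MulAut.conj g₀⁻¹).injective).toEquiv.symm
      rw [this]; exact hK₁
    have hK₂z : ∀ c ∈ K₂, c * z = z * c := by
      rintro _ ⟨c, hc, rfl⟩
      have h1 := hK₁u c hc
      simp only [MulEquiv.coe_toMonoidHom, MulAut.conj_apply, inv_inv]
      rw [← hz']
      calc g₀⁻¹ * c * g₀ * (g₀⁻¹ * u * g₀) = g₀⁻¹ * (c * u) * g₀ := by group
        _ = g₀⁻¹ * (u * c) * g₀ := by rw [h1]
        _ = g₀⁻¹ * u * g₀ * (g₀⁻¹ * c * g₀) := by group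
    have hK₂U : ∀ w ∈ U, ∀ c ∈ K₂, w * c * w⁻¹ ∈ K₂ := by
      rintro w hw _ ⟨c, hc, rfl⟩
      simp only [MulEquiv.coe_toMonoidHom, MulAut.conj_apply, inv_inv]
      have h1 := hK₁U _ (hgU w hw) c hc
      have h2 := hK₂mem _ h1
      have e : g₀⁻¹ * (g₀ * w * g₀⁻¹ * c * (g₀ * w * g₀⁻¹)⁻¹) * g₀ = w * (g₀⁻¹ * c * g₀) * w⁻¹ := by group
      rw [← e]; exact h2
    have hfinal := main_lemma hchar P U hUP hUn hU4 hzU hz1 hzc K₂ hK₂odd hK₂z hK₂U
      (g₀⁻¹ * v * g₀) (hgU' v hvU) (g₀⁻¹ * k * g₀) (hK₂mem k hk)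
    calc k * v = g₀ * ((g₀⁻¹ * k * g₀) * (g₀⁻¹ * v * g₀)) * g₀⁻¹ := by group
      _ = g₀ * ((g₀⁻¹ * v * g₀) * (g₀⁻¹ * k * g₀)) * g₀⁻¹ := by rw [hfinal]
      _ = v * k := by group

/-- The four-group centralizes odd-order subgroups that it normalizes. -/
theorem four_centralizes (hchar : ∀ T : Subgroup G, IsPGroup 2 T → T ≠ ⊥ → IsOfCharacteristicTwo ↥(normalizer (T : Set G)))
    (P : Sylow 2 G) (U : Subgroup G) (hUP : U ≤ (P : Subgroup G))
    (hUn : (P : Subgroup G) ≤ normalizer (U : Set G)) (hU4 : IsKleinFour ↥U)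
    (hUZ : ¬ IsCyclic ↥((P : Subgroup G) ⊓ centralizer ((P : Subgroup G) : Set G)) →
      U ≤ centralizer ((P : Subgroup G) : Set G))
    (K : Subgroup G) (hK : Odd (Nat.card K)) (hUK : U ≤ normalizer (K : Set G)) :
    U ≤ centralizer (K : Set G) := by
  have : Fact (Nat.Prime 2) := ⟨Nat.prime_two⟩
  have hsq : ∀ a ∈ U, a * a = 1 := by
    intro a ha
    have := IsKleinFour.mul_self (⟨a, ha⟩ : ↥U)
    simpa using congrArg Subtype.val this
  have hU1 : U ≠ ⊥ := by
    rintro rfl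
    have h1 := IsKleinFour.card_four (G := ↥(⊥ : Subgroup G))
    simp at h1
  have h0 := H13.inf_center_ne_bot_of_pgroup P.isPGroup' hUP hU1 hUn
  obtain ⟨⟨z, hzm⟩, hz1'⟩ := Subgroup.ne_bot_iff_exists_ne_one.1 h0
  have hz1 : z ≠ 1 := fun h => hz1' (Subtype.ext h)
  have hzU : z ∈ U := hzm.1
  have hzc : ∀ p ∈ (P : Subgroup G), p * z = z * p := fun p hp =>
    (mem_centralizer_iff.1 hzm.2.2 p hp)
  have hcomm : ∀ a ∈ U, ∀ b ∈ U, a * b = b * a := by
    intro a ha b hb
    have h1 : (a * b) * (a * b) = 1 := hsq _ (U.mul_mem ha hb)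
    have h2 := hsq a ha
    have h3 := hsq b hb
    calc a * b = a * b * ((a * b) * (b * a)) := by
          have : (a * b) * (b * a) = 1 := by
            calc (a * b) * (b * a) = a * (b * b) * a := by group
              _ = 1 := by rw [h3, mul_one, h2]
          rw [this, mul_one]
      _ = ((a * b) * (a * b)) * (b * a) := by group
      _ = b * a := by rw [h1, one_mul]
  have hKn : ∀ w ∈ U, ∀ k ∈ K, w * k * w⁻¹ ∈ K := fun w hw k hk =>
    (mem_normalizer_iff.1 (hUK hw) k).1 hk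
  -- local claim
  have hloc : ∀ u ∈ U, u ≠ 1 → ∀ k ∈ K, k * u = u * k → ∀ v ∈ U, k * v = v * k := by
    intro u huU hu1 k hk hku v hv
    set K₁ : Subgroup G := K ⊓ centralizer ({u} : Set G) with hK₁def
    have hK₁ : Odd (Nat.card K₁) := Odd.of_dvd_nat hK (Subgroup.card_dvd_of_le inf_le_left)
    have hK₁mem : ∀ c, c ∈ K₁ ↔ c ∈ K ∧ c * u = u * c := by
      intro c
      rw [hK₁def, Subgroup.mem_inf, mem_centralizer_singleton_iff]
    have hK₁u : ∀ c ∈ K₁, c * u = u * c := fun c hc => ((hK₁mem c).1 hc).2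
    have hK₁U : ∀ w ∈ U, ∀ c ∈ K₁, w * c * w⁻¹ ∈ K₁ := by
      intro w hw c hc
      obtain ⟨hcK, hcu⟩ := (hK₁mem c).1 hc
      rw [hK₁mem]
      refine ⟨hKn w hw c hcK, ?_⟩
      have hwu := hcomm w hw u huU
      have hwi : w⁻¹ * u = u * w⁻¹ := by
        calc w⁻¹ * u = w⁻¹ * (u * w) * w⁻¹ := by group
          _ = w⁻¹ * (w * u) * w⁻¹ := by rw [hwu]
          _ = u * w⁻¹ := by group
      calc w * c * w⁻¹ * u = w * c * (w⁻¹ * u) := by group
        _ = w * c * (u * w⁻¹) := by rw [hwi]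
        _ = w * (c * u) * w⁻¹ := by group
        _ = w * (u * c) * w⁻¹ := by rw [hcu]
        _ = (w * u) * c * w⁻¹ := by group
        _ = (u * w) * c * w⁻¹ := by rw [hwu]
        _ = u * (w * c * w⁻¹) := by group
    have hkK₁ : k ∈ K₁ := (hK₁mem k).2 ⟨hk, hku⟩
    by_cases huc : ∀ p ∈ (P : Subgroup G), p * u = u * p
    · exact main_lemma hchar P U hUP hUn hU4 huU hu1 huc K₁ hK₁ hK₁u hK₁U v hv k hkK₁
    · have hcyc : IsCyclic ↥((P : Subgroup G) ⊓ centralizer ((P : Subgroup G) : Set G)) := by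
        by_contra h
        apply huc
        intro p hp
        exact mem_centralizer_iff.1 (hUZ h huU) p hp
      exact noncentral hchar P U hUP hUn hU4 hcyc hzU hz1 hzc huU hu1 huc K₁ hK₁ hK₁u hK₁U v hv k hkK₁
  -- another element of `U`
  obtain ⟨u₁, hu₁U, hu₁1, hu₁z⟩ : ∃ u₁ ∈ U, u₁ ≠ 1 ∧ u₁ ≠ z := by
    by_contra hcon
    have hall : ∀ v ∈ U, v = 1 ∨ v = z := by
      intro v hv
      by_contra h
      rw [not_or] at h
      exact hcon ⟨v, hv, h.1, h.2⟩
    apply IsKleinFour.not_isCyclic (G := ↥U)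
    rw [isCyclic_iff_exists_zpowers_eq_top]
    refine ⟨⟨z, hzU⟩, ?_⟩
    rw [eq_top_iff]
    intro v _
    rcases hall v.1 v.2 with h | h
    · have : v = 1 := Subtype.ext h
      rw [this]; exact Subgroup.one_mem _
    · have : v = ⟨z, hzU⟩ := Subtype.ext h
      rw [this]; exact mem_zpowers _
  have hzu₁ : z * u₁ ≠ 1 := by
    intro h
    apply hu₁z
    have h2 := hsq z hzU
    calc u₁ = z * (z * u₁) := by rw [← mul_assoc, h2, one_mul]
      _ = z := by rw [h, mul_one]
  have hmain := gen_four (hsq z hzU) (hsq u₁ hu₁U) (hcomm z hzU u₁ hu₁U) K hK (hKn z hzU) (hKn u₁ hu₁U) (by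
    intro k hk hor
    have hz' : ∀ v ∈ U, k * v = v * k := by
      rcases hor with h | h | h
      · exact hloc z hzU hz1 k hk h
      · exact hloc u₁ hu₁U hu₁1 k hk h
      · exact hloc _ (U.mul_mem hzU hu₁U) hzu₁ k hk h
    exact ⟨hz' z hzU, hz' u₁ hu₁U⟩)
  intro v hv
  rw [mem_centralizer_iff]
  intro k hk
  have hall : ∀ w ∈ U, w = 1 ∨ w = z ∨ w = u₁ ∨ w = z * u₁ := by
    intro v hv
    by_contra hcon
    rw [not_or, not_or, not_or] at hcon
    obtain ⟨c1, c2, c3, c4⟩ := hcon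
    have h1 : (⟨z, hzU⟩ : ↥U) ≠ 1 := fun h => hz1 (congrArg Subtype.val h)
    have h2 : (⟨u₁, hu₁U⟩ : ↥U) ≠ 1 := fun h => hu₁1 (congrArg Subtype.val h)
    have h3 : (⟨z, hzU⟩ : ↥U) ≠ ⟨u₁, hu₁U⟩ := fun h => hu₁z (congrArg Subtype.val h).symm
    have h4 : (⟨v, hv⟩ : ↥U) ≠ 1 := fun h => c1 (congrArg Subtype.val h)
    have h5 : (⟨v, hv⟩ : ↥U) ≠ ⟨z, hzU⟩ := fun h => c2 (congrArg Subtype.val h)
    have h6 : (⟨v, hv⟩ : ↥U) ≠ ⟨u₁, hu₁U⟩ := fun h => c3 (congrArg Subtype.val h)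
    have h7 := IsKleinFour.eq_mul_of_ne_all h1 h2 h3 h4 h5 h6
    exact c4 (by simpa using congrArg Subtype.val h7)
  obtain ⟨hk1, hk2⟩ := hmain k hk
  rcases hall v hv with rfl | rfl | rfl | rfl
  · simp
  · exact hk1
  · exact hk2
  · calc k * (z * u₁) = (k * z) * u₁ := by group
      _ = (z * k) * u₁ := by rw [hk1]
      _ = z * (k * u₁) := by group
      _ = z * (u₁ * k) := by rw [hk2]
      _ = z * u₁ * k := by group

end Cfsg.Agent.H08.NG
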